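import Cfsg.Agent.Helper28.Grp4
import Cfsg.Agent.Helper28.HE.Simple

/-!
# The presented group He is simple (helper28)

The normaliser of the four-group is maximal: it has seven orbits on its 8330 cosets, and a union of
orbits containing the trivial coset whose size divides 8330 is either trivial, everything, or contains
the orbit of size 720 but not the orbit of size 1344; but the product of two elements whose cosets
lie in the orbit of size 720 has its coset in the orbit of size 1344. Iwasawa's criterion then gives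
simplicity.
-/

set_option autoImplicit false

namespace Cfsg.Agent.Helper28.HE

open Cfsg.Spor

/-- the sizes of the nontrivial orbits of the normaliser of the four-group -/
def orbSizes : Fin 6 → ℕ := ![720, 1344, 4480, 105, 840, 840]

theorem sizes_key : ∀ i j : Fin 6, i ≠ j → orbSizes i = orbSizes j →
    (i = 4 ∧ j = 5) ∨ (i = 5 ∧ j = 4) := by decide

theorem sizes_pos : ∀ i : Fin 6, 1 < orbSizes i := by decide

theorem sizes_sum : 1 + ∑ i, orbSizes i = 8330 := by decide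

theorem arith_key : ∀ I : Finset (Fin 6), (1 + ∑ i ∈ I, orbSizes i) ∣ 8330 →
    I = ∅ ∨ I = Finset.univ ∨ ((0 : Fin 6) ∈ I ∧ (1 : Fin 6) ∉ I) := by decide +kernel

theorem maximal (L : Subgroup He) (hL : HV ≤ L) : L = HV ∨ L = ⊤ := by
  obtain ⟨e, he, he1⟩ := Cfsg.Agent.Helper28.HEN.cert.exists_equiv
  have o1 := Cfsg.Agent.Helper28.HEN.cert.orbit_cert e he 720 Cfsg.Agent.Helper28.HENO.ov1 Cfsg.Agent.Helper28.HENO.op1 Cfsg.Agent.Helper28.HENO.otp1 Cfsg.Agent.Helper28.HENO.otw1 (by decide) Cfsg.Agent.Helper28.HENO.orb1_all Cfsg.Agent.Helper28.HENO.ov1_lt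
  have o2 := Cfsg.Agent.Helper28.HEN.cert.orbit_cert e he 1344 Cfsg.Agent.Helper28.HENO.ov2 Cfsg.Agent.Helper28.HENO.op2 Cfsg.Agent.Helper28.HENO.otp2 Cfsg.Agent.Helper28.HENO.otw2 (by decide) Cfsg.Agent.Helper28.HENO.orb2_all Cfsg.Agent.Helper28.HENO.ov2_lt
  have o3 := Cfsg.Agent.Helper28.HEN.cert.orbit_cert e he 4480 Cfsg.Agent.Helper28.HENO.ov3 Cfsg.Agent.Helper28.HENO.op3 Cfsg.Agent.Helper28.HENO.otp3 Cfsg.Agent.Helper28.HENO.otw3 (by decide) Cfsg.Agent.Helper28.HENO.orb3_all Cfsg.Agent.Helper28.HENO.ov3_lt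
  have o4 := Cfsg.Agent.Helper28.HEN.cert.orbit_cert e he 105 Cfsg.Agent.Helper28.HENO.ov4 Cfsg.Agent.Helper28.HENO.op4 Cfsg.Agent.Helper28.HENO.otp4 Cfsg.Agent.Helper28.HENO.otw4 (by decide) Cfsg.Agent.Helper28.HENO.orb4_all Cfsg.Agent.Helper28.HENO.ov4_lt
  have o5 := Cfsg.Agent.Helper28.HEN.cert.orbit_cert e he 840 Cfsg.Agent.Helper28.HENO.ov5 Cfsg.Agent.Helper28.HENO.op5 Cfsg.Agent.Helper28.HENO.otp5 Cfsg.Agent.Helper28.HENO.otw5 (by decide) Cfsg.Agent.Helper28.HENO.orb5_all Cfsg.Agent.Helper28.HENO.ov5_lt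
  have o6 := Cfsg.Agent.Helper28.HEN.cert.orbit_cert e he 840 Cfsg.Agent.Helper28.HENO.ov6 Cfsg.Agent.Helper28.HENO.op6 Cfsg.Agent.Helper28.HENO.otp6 Cfsg.Agent.Helper28.HENO.otw6 (by decide) Cfsg.Agent.Helper28.HENO.orb6_all Cfsg.Agent.Helper28.HENO.ov6_lt
  have hidx : HV.index = 8330 := Cfsg.Agent.Helper28.HEN.cert.index_eq
  have hm : ∀ i, (MulAction.orbit HV ((![e.symm ⟨Cfsg.Agent.Helper28.HENO.ov1 0, Cfsg.Agent.Helper28.HENO.ov1_lt⟩,
      e.symm ⟨Cfsg.Agent.Helper28.HENO.ov2 0, Cfsg.Agent.Helper28.HENO.ov2_lt⟩,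
      e.symm ⟨Cfsg.Agent.Helper28.HENO.ov3 0, Cfsg.Agent.Helper28.HENO.ov3_lt⟩,
      e.symm ⟨Cfsg.Agent.Helper28.HENO.ov4 0, Cfsg.Agent.Helper28.HENO.ov4_lt⟩,
      e.symm ⟨Cfsg.Agent.Helper28.HENO.ov5 0, Cfsg.Agent.Helper28.HENO.ov5_lt⟩,
      e.symm ⟨Cfsg.Agent.Helper28.HENO.ov6 0, Cfsg.Agent.Helper28.HENO.ov6_lt⟩] : Fin 6 → He ⧸ HV) i)).ncard =
        orbSizes i := by
    intro i
    fin_cases i
    · exact o1.1
    · exact o2.1
    · exact o3.1
    · exact o4.1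
    · exact o5.1
    · exact o6.1
  have h45 : Disjoint (MulAction.orbit HV (e.symm ⟨Cfsg.Agent.Helper28.HENO.ov5 0, Cfsg.Agent.Helper28.HENO.ov5_lt⟩))
      (MulAction.orbit HV (e.symm ⟨Cfsg.Agent.Helper28.HENO.ov6 0, Cfsg.Agent.Helper28.HENO.ov6_lt⟩)) := by
    apply orbit_disjoint_of_notMem
    rw [o5.2, Equiv.apply_symm_apply]
    show ¬ (Cfsg.Agent.Helper28.HENO.op5 (Cfsg.Agent.Helper28.HENO.ov6 0) < 840 ∧
      Cfsg.Agent.Helper28.HENO.ov5 (Cfsg.Agent.Helper28.HENO.op5 (Cfsg.Agent.Helper28.HENO.ov6 0)) =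
        Cfsg.Agent.Helper28.HENO.ov6 0)
    decide +kernel
  have hg1 : (QuotientGroup.mk (wv [1]) : He ⧸ HV) ∈
      MulAction.orbit HV (e.symm ⟨Cfsg.Agent.Helper28.HENO.ov1 0, Cfsg.Agent.Helper28.HENO.ov1_lt⟩) := by
    have h := Cfsg.Agent.Helper28.HEN.cert.equiv_mk_word e he he1 [1] (by decide +kernel) 1 (by decide)
      (by decide +kernel)
    rw [show (QuotientGroup.mk (wv [1]) : He ⧸ HV) = e.symm ⟨1, by decide⟩ from h, o1.2,
      Equiv.apply_symm_apply]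
    show Cfsg.Agent.Helper28.HENO.op1 1 < 720 ∧
      Cfsg.Agent.Helper28.HENO.ov1 (Cfsg.Agent.Helper28.HENO.op1 1) = 1
    decide +kernel
  have hg2 : (QuotientGroup.mk (wv [2, 3, 2, 1]) : He ⧸ HV) ∈
      MulAction.orbit HV (e.symm ⟨Cfsg.Agent.Helper28.HENO.ov1 0, Cfsg.Agent.Helper28.HENO.ov1_lt⟩) := by
    have h := Cfsg.Agent.Helper28.HEN.cert.equiv_mk_word e he he1 [2, 3, 2, 1] (by decide +kernel) 4 (by decide)
      (by decide +kernel)
    rw [show (QuotientGroup.mk (wv [2, 3, 2, 1]) : He ⧸ HV) = e.symm ⟨4, by decide⟩ from h, o1.2,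
      Equiv.apply_symm_apply]
    show Cfsg.Agent.Helper28.HENO.op1 4 < 720 ∧
      Cfsg.Agent.Helper28.HENO.ov1 (Cfsg.Agent.Helper28.HENO.op1 4) = 4
    decide +kernel
  have hg12 : (QuotientGroup.mk (wv [1] * wv [2, 3, 2, 1]) : He ⧸ HV) ∈
      MulAction.orbit HV (e.symm ⟨Cfsg.Agent.Helper28.HENO.ov2 0, Cfsg.Agent.Helper28.HENO.ov2_lt⟩) := by
    have h := Cfsg.Agent.Helper28.HEN.cert.equiv_mk_word e he he1 ([1] ++ [2, 3, 2, 1]) (by decide +kernel) 8
      (by decide) (by decide +kernel)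
    rw [← wv_append, show (QuotientGroup.mk (wv ([1] ++ [2, 3, 2, 1])) : He ⧸ HV) = e.symm ⟨8, by decide⟩ from h,
      o2.2, Equiv.apply_symm_apply]
    show Cfsg.Agent.Helper28.HENO.op2 8 < 1344 ∧
      Cfsg.Agent.Helper28.HENO.ov2 (Cfsg.Agent.Helper28.HENO.op2 8) = 8
    decide +kernel
  refine maximal_of_orbits_wit HV _ orbSizes hm ?_ ?_ ?_ ?_ L hL
  · intro i j hij
    by_cases hne : orbSizes i = orbSizes j
    · rcases sizes_key i j hij hne with ⟨rfl, rfl⟩ | ⟨rfl, rfl⟩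
      · exact h45
      · exact h45.symm
    · exact orbit_disjoint_of_ncard_ne _ _ (by rw [hm i, hm j]; exact hne)
  · intro i
    exact mk_one_notMem_orbit HV _ (by rw [hm i]; exact sizes_pos i)
  · rw [hidx]
    exact sizes_sum
  · intro I hI
    rw [hidx] at hI
    rcases arith_key I hI with h | h | h
    · exact Or.inl h
    · exact Or.inr (Or.inl h)
    · exact Or.inr (Or.inr ⟨wv [1], wv [2, 3, 2, 1], ⟨0, h.1, hg1⟩, ⟨0, h.1, hg2⟩, ⟨1, h.2, hg12⟩⟩)

/-! ### simplicity -/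

theorem core_trivial (N : Subgroup He) (hN : N.Normal) (hle : N ≤ HV) : N = ⊥ := by
  have h1 := Cfsg.Agent.Helper28.HEN.cert.normal_le_ker N hN hle
  rw [(MonoidHom.ker_eq_bot_iff _).mpr inj] at h1
  exact le_bot_iff.mp h1

theorem simple : IsSimpleGroup He := by
  have := nontrivial
  exact iwasawa_simple HV VA maximal VA_normal VA_comm VA_gen perfect core_trivial

end Cfsg.Agent.Helper28.HE
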